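import Mathlib
import Cfsg.Agent.Lib.Helper60.SUG.Defs
import Cfsg.Agent.Lib.Helper13.HermWitt
import Cfsg.Agent.Lib.Helper13.SUGen3

/-!
# Project SUG (S2412), package [STEP]

The induction step `E_m → E_{m+1}`: if all isotropic vectors of `E_m` are centres of `K` and some
centre of `E_{m+1}` has nonzero `m`-th coordinate, then all isotropic vectors of `E_{m+1}` are
centres.
-/

set_option autoImplicit false

namespace Cfsg.Agent.Lib.Helper72.SUG

open Matrix Cfsg.Agent.Lib.Helper60.SUG Cfsg.Agent.Lib.Helper13 Cfsg.Agent.Lib.Helper45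
  Cfsg.Agent.Lib.Helper44

universe u

variable {F : Type u} [Field F] [Fintype F] {q n m : ℕ}

/-- the coordinate embedding `F^m → F^n` (first `m` coordinates). -/
def cB (n m : ℕ) (F : Type u) [Field F] : Matrix (Fin n) (Fin m) F :=
  Matrix.of fun i j => if (i : ℕ) = (j : ℕ) then 1 else 0

omit [Fintype F] in
theorem cB_mulVec (ξ : Fin m → F) (i : Fin n) :
    (cB n m F *ᵥ ξ) i = if h : (i : ℕ) < m then ξ ⟨i, h⟩ else 0 := by
  classical
  unfold cB
  simp only [Matrix.mulVec, dotProduct, Matrix.of_apply]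
  split_ifs with h
  · rw [Finset.sum_eq_single ⟨i, h⟩]
    · simp
    · intro j _ hj
      have : (i : ℕ) ≠ (j : ℕ) := fun e => hj (Fin.ext e.symm)
      simp [this]
    · intro h'; exact absurd (Finset.mem_univ _) h'
  · apply Finset.sum_eq_zero
    intro j _
    have : (i : ℕ) ≠ (j : ℕ) := fun e => h (e ▸ j.isLt)
    simp [this]

theorem cT_cB_mul (hq : q ≠ 0) (hmn : m ≤ n) : cT q (cB n m F) * cB n m F = 1 := by
  classical
  ext j j'
  rw [Matrix.mul_apply, Finset.sum_eq_single (Fin.castLE hmn j)]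
  · simp [cT, cB, Matrix.one_apply, Fin.ext_iff]
  · intro i _ hi
    have : (i : ℕ) ≠ (j : ℕ) := fun e => hi (Fin.ext e)
    simp [cT, cB, this, hq]
  · intro h'; exact absurd (Finset.mem_univ _) h'

theorem isIsoEmb_cB (hF : Fintype.card F = q ^ 2) (hmn : m ≤ n) : IsIsoEmb q (cB n m F) := by
  have hq : q ≠ 0 := by have := two_le_q hF; omega
  intro x y
  rw [herm_mulVec_right hF, Matrix.mulVec_mulVec, cT_cB_mul hq hmn, Matrix.one_mulVec]

theorem supp_cB (ξ : Fin m → F) : Supp m (cB n m F *ᵥ ξ) := by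
  intro i hi
  rw [cB_mulVec, dif_neg (by omega)]

theorem decomp_cB (hmn : m ≤ n) (v : Fin n → F) (hv : Supp (m + 1) v) (i₀ : Fin n)
    (hi₀ : (i₀ : ℕ) = m) :
    v = cB n m F *ᵥ (fun j : Fin m => v (Fin.castLE hmn j)) + v i₀ • Pi.single i₀ (1 : F) := by
  classical
  funext i
  rw [Pi.add_apply, cB_mulVec, Pi.smul_apply, Pi.single_apply, smul_eq_mul]
  by_cases h : (i : ℕ) < m
  · rw [dif_pos h, if_neg (fun e => by rw [e, hi₀] at h; exact lt_irrefl _ h), mul_zero, add_zero]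
    exact congrArg v (Fin.ext rfl)
  · rw [dif_neg h]
    by_cases h2 : i = i₀
    · rw [if_pos h2, h2]; ring
    · rw [if_neg h2, mul_zero, add_zero]
      apply hv
      have : (i : ℕ) ≠ m := fun e => h2 (Fin.ext (e.trans hi₀.symm))
      omega

omit [Fintype F] in
theorem cT_cB_single (hq : q ≠ 0) (i₀ : Fin n) (hi₀ : (i₀ : ℕ) = m) :
    cT q (cB n m F) *ᵥ (Pi.single i₀ (1 : F)) = 0 := by
  classical
  funext j
  rw [Matrix.mulVec_single_one]
  have : (i₀ : ℕ) ≠ (j : ℕ) := by rw [hi₀]; exact (j.isLt).ne'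
  simp [cT, cB, this, hq]

theorem isoLift_mul72 {B : Matrix (Fin n) (Fin m) F} (hB : cT q B * B = 1)
    (A₁ A₂ : Matrix (Fin m) (Fin m) F) :
    isoLift q B (A₁ * A₂) = isoLift q B A₁ * isoLift q B A₂ := by
  rw [Matrix.ext_iff_mulVec]
  intro x
  have hc : ∀ y, cT q B *ᵥ (B *ᵥ y) = y := fun y => by
    rw [Matrix.mulVec_mulVec, hB, Matrix.one_mulVec]
  rw [← Matrix.mulVec_mulVec, isoLift_mulVec, isoLift_mulVec, isoLift_mulVec,
    Matrix.mulVec_sub (cT q B), Matrix.mulVec_add (cT q B), hc, hc, ← Matrix.mulVec_mulVec]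
  have : cT q B *ᵥ x + A₂ *ᵥ (cT q B *ᵥ x) - cT q B *ᵥ x = A₂ *ᵥ (cT q B *ᵥ x) := by abel
  rw [this]
  abel

theorem pkgStep_of (hConj : PkgConj.{u}) (hSmul : PkgSmul.{u}) : PkgStep.{u} := by
  intro F _ _ q n hF K m hm hmn hq2 H1 ⟨x, hxC, hxS, i₀, hi₀, hxi⟩ v hv0 hviso hvS
  classical
  have hq : 2 ≤ q := two_le_q hF
  have hq0 : q ≠ 0 := by omega
  have hmn' : m ≤ n := by omega
  have hB : IsIsoEmb q (cB n m F) := isIsoEmb_cB hF hmn'
  have hBB : cT q (cB n m F) * cB n m F = 1 := cT_cB_mul hq0 hmn'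
  by_cases hl : v i₀ = 0
  · apply H1 v hv0 hviso
    intro i hi
    by_cases h2 : (i : ℕ) = m
    · have : i = i₀ := Fin.ext (h2.trans hi₀.symm)
      rw [this]; exact hl
    · exact hvS i (by omega)
  · obtain ⟨l, hldef⟩ : ∃ l : F, l = v i₀ := ⟨_, rfl⟩
    rw [← hldef] at hl
    obtain ⟨x', hx'def⟩ : ∃ x' : Fin n → F, x' = (l / x i₀) • x := ⟨_, rfl⟩
    have hx'C : Ctr K x' := by
      rw [hx'def]; exact hSmul hF K x hxC (l / x i₀) (div_ne_zero hl hxi)
    have hx'S : Supp (m + 1) x' := by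
      intro i hi; rw [hx'def, Pi.smul_apply, hxS i hi, smul_zero]
    have hx'i : x' i₀ = l := by
      rw [hx'def, Pi.smul_apply, smul_eq_mul, div_mul_cancel₀ _ hxi]
    obtain ⟨ξ, hξ⟩ : ∃ ξ : Fin m → F, ξ = fun j => x' (Fin.castLE hmn' j) := ⟨_, rfl⟩
    obtain ⟨η, hη⟩ : ∃ η : Fin m → F, η = fun j => v (Fin.castLE hmn' j) := ⟨_, rfl⟩
    have hx'dec : x' = cB n m F *ᵥ ξ + l • Pi.single i₀ (1 : F) := by
      have := decomp_cB hmn' x' hx'S i₀ hi₀
      rw [hx'i, ← hξ] at this; exact this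
    have hvdec : v = cB n m F *ᵥ η + l • Pi.single i₀ (1 : F) := by
      have := decomp_cB hmn' v hvS i₀ hi₀
      rw [← hldef, ← hη] at this; exact this
    have hnorm : ∀ ζ : Fin m → F,
        Cfsg.hermForm n F q (cB n m F *ᵥ ζ + l • Pi.single i₀ (1 : F))
          (cB n m F *ᵥ ζ + l • Pi.single i₀ (1 : F)) =
        Cfsg.hermForm m F q ζ ζ + l ^ (q + 1) := by
      intro ζ
      have e1 : Cfsg.hermForm n F q (cB n m F *ᵥ ζ) (Pi.single i₀ (1 : F)) = 0 := by
        rw [herm_single_right hq0]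
        exact supp_cB ζ i₀ (by omega)
      have e2 : Cfsg.hermForm n F q (Pi.single i₀ (1 : F)) (cB n m F *ᵥ ζ) = 0 := by
        rw [← herm_conj hF, e1, conj_zero hF]
      have e3 : Cfsg.hermForm n F q (Pi.single i₀ (1 : F)) (Pi.single i₀ (1 : F)) = 1 := by
        rw [herm_single_right hq0]; simp
      rw [herm_add_left, herm_add_right hF, herm_add_right hF, hB, herm_smul_left,
        herm_smul_left, herm_smul_right, herm_smul_right, e1, e2, e3]
      ring
    have hξn : Cfsg.hermForm m F q ξ ξ = -(l ^ (q + 1)) := by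
      have h1 := hnorm ξ
      rw [← hx'dec, hx'C.2.1] at h1
      linear_combination -h1
    have hηn : Cfsg.hermForm m F q η η = -(l ^ (q + 1)) := by
      have h1 := hnorm η
      rw [← hvdec, hviso] at h1
      linear_combination -h1
    have hξ0 : Cfsg.hermForm m F q ξ ξ ≠ 0 := by
      rw [hξn]; exact neg_ne_zero.2 (pow_ne_zero _ hl)
    obtain ⟨G, hG, hdet, hGξ⟩ := exists_hermIso_det_map hF hm ξ η hξ0 (by rw [hξn, hηn]) 1
      (one_pow _)
    have hGT : InT m F q G := by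
      refine su_inT hF m ?_ G hG hdet
      by_cases h2 : q = 2
      · exact Or.inl (hq2 h2)
      · exact Or.inr (by omega)
    have hlift : ∃ g ∈ K, mat g = isoLift q (cB n m F) G := by
      refine Submonoid.closure_induction
        (motive := fun M _ => ∃ g ∈ K, mat g = isoLift q (cB n m F) M) ?_ ?_ ?_ hGT
      · rintro _ ⟨u, c, hu, hc, rfl⟩
        have hu' : Cfsg.hermForm n F q (cB n m F *ᵥ u) (cB n m F *ᵥ u) = 0 := by rw [hB, hu]
        refine ⟨suMk (Cfsg.unitaryTransvection n q (cB n m F *ᵥ u) c) (det_utransv _ c hu')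
          (isHermIso_utransv hF _ c hu' hc), ?_, ?_⟩
        · by_cases h0 : cB n m F *ᵥ u = 0
          · have : suMk (Cfsg.unitaryTransvection n q (cB n m F *ᵥ u) c) (det_utransv _ c hu')
                (isHermIso_utransv hF _ c hu' hc) = 1 := by
              apply su_ext
              rw [suMk_val, Matrix.ext_iff_mulVec]
              intro y
              rw [utransv_mulVec, h0, smul_zero, add_zero]
              simp
            rw [this]; exact K.one_mem
          · exact (H1 _ h0 hu' (supp_cB u)).2.2 _ c hc rfl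
        · rw [isoLift_utransv hF]; rfl
      · refine ⟨1, K.one_mem, ?_⟩
        rw [show isoLift q (cB n m F) (1 : Matrix (Fin m) (Fin m) F) = 1 by simp [isoLift]]
        rfl
      · rintro M₁ M₂ _ _ ⟨g₁, hg₁, e₁⟩ ⟨g₂, hg₂, e₂⟩
        exact ⟨g₁ * g₂, K.mul_mem hg₁ hg₂, by rw [isoLift_mul72 hBB, ← e₁, ← e₂]; rfl⟩
    obtain ⟨g, hgK, hg⟩ := hlift
    have hgv : mat g *ᵥ x' = v := by
      rw [hg, hx'dec, Matrix.mulVec_add, isoLift_mulVec_emb hF hB, hGξ, Matrix.mulVec_smul,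
        isoLift_mulVec_perp _ _ _ (cT_cB_single hq0 i₀ hi₀), ← hvdec]
    rw [← hgv]
    exact hConj hF K x' hx'C g hgK

end Cfsg.Agent.Lib.Helper72.SUG
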