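import Mathlib
import Cfsg.Agent.Lib.Helper60.SUG.GenDefs
import Cfsg.Agent.Lib.Helper13.UTransvComm

/-!
# Project SUG (S2412), [GEN] leaf [GCYC]

The signed cyclic permutation matrix lies in `SU_n`.
-/

set_option autoImplicit false

namespace Cfsg.Agent.Lib.Helper72.SUG

open Matrix Cfsg.Agent.Lib.Helper60.SUG Cfsg.Agent.Lib.Helper13 Cfsg.Agent.Lib.Helper45
  Cfsg.Agent.Lib.Helper44

universe u

variable {F : Type u} [Field F]

/-- the signs of the signed cyclic shift. -/
def cycD (n : ℕ) (F : Type u) [Field F] : Fin n → F :=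
  fun j => if (j : ℕ) = 0 then (-1) ^ (n + 1) else 1

/-- the signed cyclic permutation matrix. -/
noncomputable def cycM (n : ℕ) (F : Type u) [Field F] : Matrix (Fin n) (Fin n) F :=
  Matrix.diagonal (cycD n F) * Equiv.Perm.permMatrix F ((finRotate n).symm : Equiv.Perm (Fin n))

theorem cycM_mulVec (n : ℕ) (v : Fin n → F) (j : Fin n) :
    (cycM n F *ᵥ v) j = cycD n F j * v ((finRotate n).symm j) := by
  unfold cycM
  rw [← Matrix.mulVec_mulVec, Matrix.mulVec_diagonal, Matrix.permMatrix_mulVec]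
  rfl

theorem det_cycM (n : ℕ) (hn : 1 ≤ n) : (cycM n F).det = 1 := by
  unfold cycM
  have hprod : ∏ j, cycD n F j = (-1) ^ (n + 1) := by
    rw [Finset.prod_eq_single (⟨0, hn⟩ : Fin n)]
    · simp [cycD]
    · intro j _ hj
      have : (j : ℕ) ≠ 0 := fun h => hj (Fin.ext h)
      simp [cycD, this]
    · intro h; exact absurd (Finset.mem_univ _) h
  rw [Matrix.det_mul, Matrix.det_diagonal, Matrix.det_permutation, hprod, Equiv.Perm.sign_symm,
    sign_finRotate]
  push_cast
  rw [← pow_add]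
  exact Even.neg_one_pow ⟨n, by omega⟩

theorem neg_one_pow_q72 [Fintype F] {q : ℕ} (hF : Fintype.card F = q ^ 2) :
    (-1 : F) ^ (q + 1) = 1 := by
  rw [pow_succ, conj_neg hF, one_pow]
  ring

theorem cycD_pow72 [Fintype F] {q : ℕ} (hF : Fintype.card F = q ^ 2) (n : ℕ) (j : Fin n) :
    cycD n F j ^ (q + 1) = 1 := by
  unfold cycD
  split_ifs
  · rw [← pow_mul, mul_comm, pow_mul, neg_one_pow_q72 hF, one_pow]
  · exact one_pow _

theorem isHermIso_cycM [Fintype F] {q : ℕ} (hF : Fintype.card F = q ^ 2) (n : ℕ) :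
    IsHermIso n F q (cycM n F) := by
  intro x y
  simp only [herm_def, cycM_mulVec]
  rw [← Equiv.sum_comp (finRotate n).symm (fun i => x i * y i ^ q)]
  apply Finset.sum_congr rfl
  intro j _
  have h := cycD_pow72 hF n j
  rw [mul_pow]
  linear_combination (x ((finRotate n).symm j) * y ((finRotate n).symm j) ^ q) * h

theorem pkgGCyc : PkgGCyc.{u} := by
  intro F _ _ q hF n hn
  obtain ⟨n', rfl⟩ : ∃ n', n = n' + 1 := ⟨n - 1, by omega⟩
  refine ⟨suMk (cycM (n' + 1) F) (det_cycM (n' + 1) hn) (isHermIso_cycM hF (n' + 1)), ?_, ?_⟩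
  · intro v i j hij
    show (cycM (n' + 1) F *ᵥ v) j = v i
    rw [cycM_mulVec]
    have hj0 : (j : ℕ) ≠ 0 := by omega
    have hi : i ≠ Fin.last n' := by
      intro h
      rw [h, Fin.val_last] at hij
      have := j.isLt
      omega
    have hrot : finRotate (n' + 1) i = j := by
      apply Fin.ext
      rw [coe_finRotate_of_ne_last hi, hij]
    have hsymm : (finRotate (n' + 1)).symm j = i := by
      rw [Equiv.symm_apply_eq]
      exact hrot.symm
    rw [hsymm]
    simp [cycD, hj0]
  · intro v i j hj hi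
    show (cycM (n' + 1) F *ᵥ v) j = (-1) ^ (n' + 1 + 1) * v i
    rw [cycM_mulVec]
    have hi' : i = Fin.last n' := Fin.ext (by rw [Fin.val_last]; omega)
    have hj' : j = 0 := Fin.ext (by rw [hj]; rfl)
    have hsymm : (finRotate (n' + 1)).symm j = i := by
      rw [Equiv.symm_apply_eq, hi', finRotate_last, hj']
    rw [hsymm]
    simp [cycD, hj]

end Cfsg.Agent.Lib.Helper72.SUG
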